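import Cfsg.Agent.SporadicStructure.SextetAction
import Cfsg.Agent.SporadicStructure.OrbitSizes

/-!
# Kernel-checked orbit certificates for objects given by masks

A certificate is one natural number with 56 bits per object of the orbit: the mask of the object (24 bits), the
index of the parent (16 bits), the generator leading from the parent (8 bits), the distance from the root (8 bits).
The masks are strictly increasing.
-/

set_option autoImplicit false

namespace Cfsg.Agent.H867.Cert

open Cfsg Cfsg.Agent.SporadicA.GolayBase Cfsg.Agent.SporadicA.GolayPerm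
open Cfsg.Agent.SporadicStructure.Sextet (sextetOf mem_sextetOf self_mem_sextetOf)
open Cfsg.Agent.SporadicStructure.SextetAction
open scoped Pointwise

/-- Entry `i` of a packed certificate. -/
def ent (C i : ℕ) : ℕ := Nat.mod (Nat.shiftRight C (Nat.mul 56 i)) 72057594037927936

/-- Mask. -/
def fm (e : ℕ) : ℕ := Nat.shiftRight e 32
/-- Parent index. -/
def fp (e : ℕ) : ℕ := Nat.mod (Nat.shiftRight e 16) 65536
/-- Generator index. -/
def fg (e : ℕ) : ℕ := Nat.mod (Nat.shiftRight e 8) 256
/-- Distance from the root. -/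
def fd (e : ℕ) : ℕ := Nat.mod e 256

/-- Check of one entry. -/
def entOk (valid : ℕ → Bool) (ok : ℕ → ℕ → ℕ → Bool) (C n P0 P1 r i : ℕ) : Bool :=
  valid (fm (ent C i)) &&
  (Nat.ble n (Nat.add i 1) || Nat.blt (fm (ent C i)) (fm (ent C (Nat.add i 1)))) &&
  (Nat.beq i r ||
    (Nat.blt (fp (ent C i)) n && Nat.blt (fd (ent C (fp (ent C i)))) (fd (ent C i)) &&
      ok (cond (Nat.beq (fg (ent C i)) 0) P0 P1) (fm (ent C i)) (fm (ent C (fp (ent C i))))))

/-- Check of the entries with index in `[s, s + 2 ^ k)` that are less than `n`. -/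
def allC (valid : ℕ → Bool) (ok : ℕ → ℕ → ℕ → Bool) (C n P0 P1 r : ℕ) : ℕ → ℕ → Bool
  | 0, s => Nat.ble n s || entOk valid ok C n P0 P1 r s
  | k + 1, s => allC valid ok C n P0 P1 r k s && allC valid ok C n P0 P1 r k (Nat.add s (Nat.pow 2 k))

theorem allC_spec (valid : ℕ → Bool) (ok : ℕ → ℕ → ℕ → Bool) (C n P0 P1 r k : ℕ) :
    ∀ s, allC valid ok C n P0 P1 r k s = true →
    ∀ i, s ≤ i → i < s + 2 ^ k → i < n → entOk valid ok C n P0 P1 r i = true := by
  induction k with
  | zero =>
    intro s h i h1 h2 h3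
    have : i = s := by omega
    subst this
    have h' : (Nat.ble n i || entOk valid ok C n P0 P1 r i) = true := h
    rw [Bool.or_eq_true] at h'
    rcases h' with h' | h'
    · have := Nat.le_of_ble_eq_true h'
      omega
    · exact h'
  | succ k ih =>
    intro s h i h1 h2 h3
    have h' : (allC valid ok C n P0 P1 r k s &&
      allC valid ok C n P0 P1 r k (Nat.add s (Nat.pow 2 k))) = true := h
    rw [Bool.and_eq_true] at h'
    by_cases hi : i < s + 2 ^ k
    · exact ih s h'.1 i h1 hi h3
    · refine ih _ h'.2 i ?_ ?_ h3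
      · exact not_lt.1 hi
      · rw [pow_succ] at h2
        change i < s + 2 ^ k + 2 ^ k
        omega

/-- The data checked by a certificate: all objects are in one orbit, and they are distinct. -/
theorem cert_spec {X : Type*} [MulAction (Equiv.Perm GolayPt) X] (dec : ℕ → X)
    (valid : ℕ → Bool) (ok : ℕ → ℕ → ℕ → Bool)
    (hstep : ∀ (P : ℕ) (hP : isPerm P = true), isAut P = true → ∀ (m m' : ℕ),
      valid m = true → valid m' = true → ok P m m' = true → permOf P hP • dec m' = dec m)
    (hinj : ∀ m m', valid m = true → valid m' = true → dec m = dec m' → m = m')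
    {C n P0 P1 r k : ℕ} (hcheck : allC valid ok C n P0 P1 r k 0 = true) (hn : n ≤ 2 ^ k)
    (H : Subgroup (Equiv.Perm GolayPt)) (hP0 : isPerm P0 = true) (hP1 : isPerm P1 = true)
    (hA0 : isAut P0 = true) (hA1 : isAut P1 = true)
    (hH0 : permOf P0 hP0 ∈ H) (hH1 : permOf P1 hP1 ∈ H) :
    (∀ i, i < n → ∃ g ∈ H, g • dec (fm (ent C r)) = dec (fm (ent C i))) ∧
      (∀ i j, i < n → j < n → dec (fm (ent C i)) = dec (fm (ent C j)) → i = j) := by
  have hall : ∀ i, i < n → entOk valid ok C n P0 P1 r i = true := fun i hi =>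
    allC_spec valid ok C n P0 P1 r k 0 hcheck i (Nat.zero_le _) (by omega) hi
  have hvalid : ∀ i, i < n → valid (fm (ent C i)) = true := by
    intro i hi
    have h := hall i hi
    unfold entOk at h
    simp only [Bool.and_eq_true] at h
    exact h.1.1
  constructor
  · have key : ∀ d i, i < n → fd (ent C i) ≤ d →
        ∃ g ∈ H, g • dec (fm (ent C r)) = dec (fm (ent C i)) := by
      intro d
      induction d with
      | zero =>
        intro i hi hd
        have h := hall i hi
        unfold entOk at h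
        simp only [Bool.and_eq_true, Bool.or_eq_true] at h
        rcases h.2 with h1 | ⟨⟨-, h1⟩, -⟩
        · rw [Nat.eq_of_beq_eq_true h1]
          exact ⟨1, H.one_mem, one_smul _ _⟩
        · have := Nat.blt_eq.mp h1
          omega
      | succ d ih =>
        intro i hi hd
        have h := hall i hi
        unfold entOk at h
        simp only [Bool.and_eq_true, Bool.or_eq_true] at h
        rcases h.2 with h1 | ⟨⟨h1, h2⟩, h3⟩
        · rw [Nat.eq_of_beq_eq_true h1]
          exact ⟨1, H.one_mem, one_smul _ _⟩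
        · have hp := Nat.blt_eq.mp h1
          obtain ⟨g, hg, hgr⟩ := ih (fp (ent C i)) hp (by
            have := Nat.blt_eq.mp h2
            omega)
          cases hb : Nat.beq (fg (ent C i)) 0 with
          | true =>
            rw [hb, cond_true] at h3
            refine ⟨permOf P0 hP0 * g, H.mul_mem hH0 hg, ?_⟩
            rw [mul_smul, hgr]
            exact hstep P0 hP0 hA0 _ _ (hvalid i hi) (hvalid _ hp) h3
          | false =>
            rw [hb, cond_false] at h3
            refine ⟨permOf P1 hP1 * g, H.mul_mem hH1 hg, ?_⟩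
            rw [mul_smul, hgr]
            exact hstep P1 hP1 hA1 _ _ (hvalid i hi) (hvalid _ hp) h3
    exact fun i hi => key _ i hi le_rfl
  · have hcode : ∀ i, i + 1 < n → fm (ent C i) < fm (ent C (i + 1)) := by
      intro i hi
      have h := hall i (by omega)
      unfold entOk at h
      simp only [Bool.and_eq_true, Bool.or_eq_true] at h
      rcases h.1.2 with h1 | h1
      · have : n ≤ i + 1 := Nat.le_of_ble_eq_true h1
        omega
      · exact Nat.blt_eq.mp h1
    have hmono : ∀ j i, i < j → j < n → fm (ent C i) < fm (ent C j) := by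
      intro j
      induction j with
      | zero => intro i hi; omega
      | succ j ih =>
        intro i hi hj
        have h1 := hcode j hj
        rcases Nat.lt_succ_iff_lt_or_eq.1 hi with h2 | h2
        · exact lt_trans (ih i h2 (by omega)) h1
        · rw [h2]; exact h1
    intro i j hi hj hij
    have h2 := hinj _ _ (hvalid i hi) (hvalid j hj) hij
    rcases lt_trichotomy i j with h3 | h3 | h3
    · have := hmono j i h3 hj
      omega
    · exact h3
    · have := hmono i j h3 hi
      omega

/-- Lower bound for the size of an orbit of a stabiliser from a certificate. -/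
theorem le_ncard {A X : Type*} [MulAction (Equiv.Perm GolayPt) A]
    [MulAction (Equiv.Perm GolayPt) X] [Finite X] (a : A) (dec : ℕ → X)
    (valid : ℕ → Bool) (ok : ℕ → ℕ → ℕ → Bool)
    (hstep : ∀ (P : ℕ) (hP : isPerm P = true), isAut P = true → ∀ (m m' : ℕ),
      valid m = true → valid m' = true → ok P m m' = true → permOf P hP • dec m' = dec m)
    (hinj : ∀ m m', valid m = true → valid m' = true → dec m = dec m' → m = m')
    {C n P0 P1 r k : ℕ} (hcheck : allC valid ok C n P0 P1 r k 0 = true) (hn : n ≤ 2 ^ k)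
    (hP0 : isPerm P0 = true) (hP1 : isPerm P1 = true)
    (hA0 : isAut P0 = true) (hA1 : isAut P1 = true)
    (h0 : permOf P0 hP0 • a = a) (h1 : permOf P1 hP1 • a = a)
    (x : X) (hx : dec (fm (ent C r)) = x) :
    n ≤ (MulAction.orbit (MulAction.stabilizer M24 a) x).ncard := by
  obtain ⟨k1, k2⟩ := cert_spec dec valid ok hstep hinj hcheck hn
    (M24 ⊓ MulAction.stabilizer (Equiv.Perm GolayPt) a) hP0 hP1 hA0 hA1
    ⟨permOf_mem_M24 hP0 hA0, h0⟩ ⟨permOf_mem_M24 hP1 hA1, h1⟩
  have hsub : Set.range (fun i : Fin n => dec (fm (ent C i))) ⊆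
      MulAction.orbit (MulAction.stabilizer M24 a) x := by
    rintro _ ⟨i, rfl⟩
    obtain ⟨g, hg, hgi⟩ := k1 i i.2
    show dec (fm (ent C i)) ∈ _
    rw [← hgi, hx]
    exact ⟨⟨⟨g, hg.1⟩, hg.2⟩, rfl⟩
  have hinj' : Function.Injective (fun i : Fin n => dec (fm (ent C i))) := by
    intro i j hij
    exact Fin.ext (k2 i j i.2 j.2 hij)
  have h3 : (Set.range (fun i : Fin n => dec (fm (ent C i)))).ncard = n := by
    rw [← Set.image_univ, Set.ncard_image_of_injective _ hinj', Set.ncard_univ, Nat.card_fin]
  calc n = (Set.range (fun i : Fin n => dec (fm (ent C i)))).ncard := h3.symm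
    _ ≤ _ := Set.ncard_le_ncard hsub (Set.toFinite _)

/-! ### Octads -/

/-- Mask of an octad. -/
def validO (m : ℕ) : Bool := isCode m && Nat.beq (popcount m) 8

/-- One step for octads. -/
def okO (P m m' : ℕ) : Bool := Nat.beq (pimg P m') m

theorem stepO (P : ℕ) (hP : isPerm P = true) (_ : isAut P = true) (m m' : ℕ)
    (_ : validO m = true) (_ : validO m' = true) (h : okO P m m' = true) :
    permOf P hP • fin m' = fin m := by
  rw [smul_fin, Nat.eq_of_beq_eq_true h]

theorem injO (m m' : ℕ) (h : validO m = true) (h' : validO m' = true) (he : fin m = fin m') :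
    m = m' := by
  unfold validO at h h'
  rw [Bool.and_eq_true] at h h'
  exact fin_injective (isCode_lt h.1) (isCode_lt h'.1) he

theorem mem_octads_of_validO {m : ℕ} (h : validO m = true) : fin m ∈ octads := by
  unfold validO at h
  rw [Bool.and_eq_true] at h
  exact (fin_mem_octads_iff (isCode_lt h.1)).2 ⟨h.1, Nat.eq_of_beq_eq_true h.2⟩

/-! ### Sextets, given by the tetrad containing the extra point -/

/-- Mask of a tetrad containing the extra point. -/
def validS (m : ℕ) : Bool := Nat.beq (popcount m) 4 && Nat.ble 8388608 m && Nat.blt m 16777216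

/-- One step for sextets. -/
def okS (P m m' : ℕ) : Bool := isCode (Nat.xor (pimg P m') m)

/-- The sextet of a mask of a tetrad. -/
noncomputable def sx (m : ℕ) : Finset (Finset GolayPt) := sextetOf (fin m)

theorem validS_iff {m : ℕ} : validS m = true ↔
    (fin m).card = 4 ∧ 8388608 ≤ m ∧ m < 16777216 := by
  unfold validS
  rw [Bool.and_eq_true, Bool.and_eq_true, card_fin, Nat.beq_eq, Nat.ble_eq, Nat.blt_eq, and_assoc]

theorem sx_mem {m : ℕ} (h : validS m = true) : sx m ∈ sextets :=
  sextetOf_mem (validS_iff.1 h).1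

theorem sx_eq_of_isCode {m m' : ℕ} (hm : (fin m).card = 4) (hm' : (fin m').card = 4)
    (hl : m < 2 ^ 24) (hl' : m' < 2 ^ 24) (h : isCode (m ^^^ m') = true) : sx m = sx m' := by
  apply sextetOf_eq hm hm'
  rw [← fin_xor, fin_mem_supports_iff (Nat.xor_lt_two_pow hl hl')]
  exact h

theorem smul_sx {P : ℕ} (hP : isPerm P = true) (hA : isAut P = true) {m : ℕ}
    (hm : (fin m).card = 4) : permOf P hP • sx m = sx (pimg P m) := by
  unfold sx
  rw [smul_sextetOf (permOf_mem_M24 hP hA) hm, smul_fin]

theorem card_pimg {P : ℕ} (hP : isPerm P = true) {m : ℕ} : (fin (pimg P m)).card = (fin m).card := by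
  rw [← smul_fin hP, Finset.card_smul_finset]

theorem stepS (P : ℕ) (hP : isPerm P = true) (hA : isAut P = true) (m m' : ℕ)
    (h1 : validS m = true) (h2 : validS m' = true) (h : okS P m m' = true) :
    permOf P hP • sx m' = sx m := by
  rw [validS_iff] at h1 h2
  rw [smul_sx hP hA h2.1]
  exact sx_eq_of_isCode (by rw [card_pimg hP, h2.1]) h1.1 (pimg_lt hP _) h1.2.2 h

theorem none_mem_fin {m : ℕ} (h : 8388608 ≤ m) (h' : m < 16777216) : none ∈ fin m := by
  rw [mem_fin]
  show m.testBit 23 = true
  rw [Nat.testBit_eq_decide_div_mod_eq]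
  simp only [decide_eq_true_eq]
  omega

theorem injS (m m' : ℕ) (h : validS m = true) (h' : validS m' = true) (he : sx m = sx m') :
    m = m' := by
  rw [validS_iff] at h h'
  have h1 : fin m ∈ sx m := self_mem_sextetOf _
  have h2 : fin m' ∈ sx m := by rw [he]; exact self_mem_sextetOf _
  have h3 : fin m = fin m' := by
    by_contra hne
    have h4 := Cfsg.Agent.SporadicStructure.Sextet.disjoint_of_mem (sextetOf_mem h.1) h1 h2 hne
    exact (Finset.disjoint_left.1 h4) (none_mem_fin h.2.1 h.2.2) (none_mem_fin h'.2.1 h'.2.2)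
  exact fin_injective h.2.2 h'.2.2 h3

/-! ### An invariant of a pair of families of sets -/

/-- Sum of the squares of the intersection sizes. -/
def FF (S X : Finset (Finset GolayPt)) : ℕ := ∑ t ∈ S, ∑ u ∈ X, (t ∩ u).card ^ 2

theorem FF_stab {S X : Finset (Finset GolayPt)} {g : M24}
    (hg : g ∈ MulAction.stabilizer M24 S) : FF S (g • X) = FF S X := by
  have h1 : (g : Equiv.Perm GolayPt) • S = S := hg
  have h2 := F_smul (g : Equiv.Perm GolayPt) S X
  rw [h1] at h2
  exact h2

/-- Sum of the squares of the intersection sizes with one set. -/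
def FO (S : Finset (Finset GolayPt)) (x : Finset GolayPt) : ℕ := ∑ t ∈ S, (t ∩ x).card ^ 2

theorem FO_stab {S : Finset (Finset GolayPt)} {x : Finset GolayPt} {g : M24}
    (hg : g ∈ MulAction.stabilizer M24 S) : FO S (g • x) = FO S x := by
  have h := FF_stab (X := {x}) hg
  have h1 : (g • ({x} : Finset (Finset GolayPt))) = {g • x} :=
    Finset.smul_finset_singleton _
  rw [h1] at h
  unfold FF at h
  simp only [Finset.sum_singleton] at h
  exact h

theorem FO_toFinset (L : List ℕ) (hnd : L.Nodup) (hlt : ∀ x ∈ L, x < 2 ^ 24) (m : ℕ) :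
    FO (L.map fin).toFinset (fin m) = (L.map fun x => popcount (x &&& m) ^ 2).sum := by
  have h1 : (L.map fin).Nodup := by
    apply List.Nodup.map_on _ hnd
    intro x hx y hy hxy
    exact fin_injective (hlt x hx) (hlt y hy) hxy
  unfold FO
  rw [List.sum_toFinset _ h1, List.map_map]
  congr 1
  apply List.map_congr_left
  intro x _
  show (fin x ∩ fin m).card ^ 2 = _
  rw [← fin_and, card_fin]

theorem FF_toFinset (L L' : List ℕ) (hnd : L.Nodup) (hnd' : L'.Nodup)
    (hlt : ∀ x ∈ L, x < 2 ^ 24) (hlt' : ∀ x ∈ L', x < 2 ^ 24) :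
    FF (L.map fin).toFinset (L'.map fin).toFinset =
      (L.map fun x => (L'.map fun y => popcount (x &&& y) ^ 2).sum).sum :=
  F_toFinset L L' hnd hnd' hlt hlt'

/-- The sextet of a mask as a list of masks. -/
theorem sx_eq_toFinset (m : ℕ) (L : List ℕ) (hlen : L.length = 6) (hnd : L.Nodup)
    (hm : m < 2 ^ 24) (hlt : ∀ x ∈ L, x < 2 ^ 24) (hc : popcount m = 4)
    (hc' : ∀ x ∈ L, popcount x = 4) (h : ∀ x ∈ L, isCode (m ^^^ x) = true) :
    sx m = (L.map fin).toFinset :=
  sextetOf_eq_toFinset m L hlen hnd hm hlt (by rw [card_fin]; exact hc) hc' h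

/-- Orbits of given sizes separated by an invariant cover the set. -/
theorem orbits_cover {G α ι : Type*} [Group G] [MulAction G α] [Fintype ι] (Ω : Set α)
    (hΩf : Ω.Finite) (hΩ : ∀ (g : G), ∀ y ∈ Ω, g • y ∈ Ω) (f : α → ℕ)
    (hf : ∀ (g : G) (y : α), f (g • y) = f y) (X : ι → α) (hX : ∀ i, X i ∈ Ω)
    (hinj : Function.Injective fun i => f (X i)) (n : ι → ℕ)
    (hn : ∀ i, n i ≤ (MulAction.orbit G (X i)).ncard) (hΩn : Ω.ncard ≤ ∑ i, n i) :
    (∀ i, (MulAction.orbit G (X i)).ncard = n i) ∧ Ω = ⋃ i, MulAction.orbit G (X i) := by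
  apply Cfsg.Agent.SporadicStructure.OrbitSizes.ncard_eq_of_disjoint_cover hΩf _ _ _ n hn hΩn
  · rintro i _ ⟨g, rfl⟩
    exact hΩ g _ (hX i)
  · intro i j hij
    rw [Set.disjoint_left]
    rintro _ ⟨g, rfl⟩ ⟨h, hh⟩
    apply hij
    apply hinj
    show f (X i) = f (X j)
    rw [← hf g (X i), ← hf h (X j)]
    exact congrArg f hh.symm

end Cfsg.Agent.H867.Cert
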