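import Cfsg.Agent.H867.OrbData
import Cfsg.Agent.H867.Dual
import Cfsg.Agent.S1559
import Cfsg.Agent.S1552
import Cfsg.Agent.S0360
import Cfsg.Agent.S0367

/-!
# Orbits of the stabilisers of octads, trios and sextets on octads, trios and sextets
-/

set_option autoImplicit false
open scoped Pointwise

namespace Cfsg.Agent.H867.Orb

open Cfsg Cfsg.Agent.SporadicA.GolayBase Cfsg.Agent.SporadicA.GolayPerm
open Cfsg.Agent.H867.Cert Cfsg.Agent.H867.OrbData Cfsg.Agent.H867.Dual

theorem isPerm_R0 : isPerm R0 = true := by decide +kernel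
theorem isPerm_R1 : isPerm R1 = true := by decide +kernel
theorem isAut_R0 : isAut R0 = true := by decide +kernel
theorem isAut_R1 : isAut R1 = true := by decide +kernel
theorem isPerm_Q0 : isPerm Q0 = true := by decide +kernel
theorem isPerm_Q1 : isPerm Q1 = true := by decide +kernel
theorem isAut_Q0 : isAut Q0 = true := by decide +kernel
theorem isAut_Q1 : isAut Q1 = true := by decide +kernel

/-- The masks of the octads of the base trio. -/
def LT : List ℕ := [8391797, 4346506, 4038912]

/-- The base trio. -/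
def T0 : Finset (Finset GolayPt) := (LT.map fin).toFinset

theorem LT_nodup : LT.Nodup := by decide
theorem LT_lt : ∀ x ∈ LT, x < 2 ^ 24 := by decide

theorem T0_eq : T0 = Cfsg.Agent.SporadicStructure.TrioOrbits.T0 := by
  unfold T0 LT Cfsg.Agent.SporadicStructure.TrioOrbits.T0 Cfsg.Agent.SporadicStructure.TrioCert.tri
  rfl

theorem T0_mem : T0 ∈ trios := by
  rw [T0_eq]
  exact Cfsg.Agent.SporadicStructure.TrioOrbits.T0_mem

theorem R0_T0 : permOf R0 isPerm_R0 • T0 = T0 := by
  rw [T0_eq]
  exact Cfsg.Agent.SporadicStructure.TrioOrbits.P0_T0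

theorem R1_T0 : permOf R1 isPerm_R1 • T0 = T0 := by
  rw [T0_eq]
  exact Cfsg.Agent.SporadicStructure.TrioOrbits.P1_T0

/-- The masks of the tetrads of the base sextet. -/
def LS : List ℕ := [12582915, 73748, 134272, 541440, 1310816, 2134024]

theorem LS_nodup : LS.Nodup := by decide
theorem LS_lt : ∀ x ∈ LS, x < 2 ^ 24 := by decide

/-- The base sextet. -/
noncomputable def S0 : Finset (Finset GolayPt) := sx 12582915

theorem validS0 : validS 12582915 = true := by decide +kernel

theorem S0_mem : S0 ∈ sextets := sx_mem validS0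

theorem S0_eq : S0 = (LS.map fin).toFinset :=
  sx_eq_toFinset _ LS rfl (by decide) (by norm_num) LS_lt (by decide +kernel) (by decide +kernel)
    (by decide +kernel)

theorem Q0_S0 : permOf Q0 isPerm_Q0 • S0 = S0 :=
  stepS _ _ isAut_Q0 _ _ validS0 validS0 (by decide +kernel)

theorem Q1_S0 : permOf Q1 isPerm_Q1 • S0 = S0 :=
  stepS _ _ isAut_Q1 _ _ validS0 validS0 (by decide +kernel)

/-! ### Trio stabiliser on octads -/

/-- Masks of the representatives. -/
def mA : Fin 3 → ℕ := ![4038912, 5279, 10558]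
/-- Sizes. -/
def nA : Fin 3 → ℕ := ![3, 84, 672]
/-- Values of the invariant. -/
def vA : Fin 3 → ℕ := ![64, 32, 24]

theorem mA_valid (i : Fin 3) : validO (mA i) = true := by revert i; decide +kernel

theorem inv_A (i : Fin 3) : FO T0 (fin (mA i)) = vA i := by
  unfold T0
  rw [FO_toFinset LT LT_nodup LT_lt]
  revert i
  decide +kernel

theorem le_A (i : Fin 3) :
    nA i ≤ (MulAction.orbit (MulAction.stabilizer M24 T0) (fin (mA i))).ncard := by
  fin_cases i
  · exact le_ncard T0 fin validO okO stepO injO certA0 (by norm_num) isPerm_R0 isPerm_R1 isAut_R0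
      isAut_R1 R0_T0 R1_T0 _ (congrArg fin (by decide +kernel))
  · exact le_ncard T0 fin validO okO stepO injO certA1 (by norm_num) isPerm_R0 isPerm_R1 isAut_R0
      isAut_R1 R0_T0 R1_T0 _ (congrArg fin (by decide +kernel))
  · exact le_ncard T0 fin validO okO stepO injO certA2 (by norm_num) isPerm_R0 isPerm_R1 isAut_R0
      isAut_R1 R0_T0 R1_T0 _ (congrArg fin (by decide +kernel))

theorem orbits_A :
    (∀ i, (MulAction.orbit (MulAction.stabilizer M24 T0) (fin (mA i))).ncard = nA i) ∧
      octads = ⋃ i, MulAction.orbit (MulAction.stabilizer M24 T0) (fin (mA i)) := by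
  refine orbits_cover octads (Set.toFinite _) ?_ (FO T0) ?_ (fun i => fin (mA i)) ?_ ?_ nA le_A ?_
  · rintro ⟨g, -⟩ y hy
    exact (smul_mem_octads g.2).2 hy
  · rintro ⟨g, hg⟩ y
    exact FO_stab hg
  · exact fun i => mem_octads_of_validO (mA_valid i)
  · intro i j hij
    simp only [inv_A] at hij
    revert hij
    revert i j
    decide
  · rw [Cfsg.Agent.S0360.result]
    decide

/-! ### Trio stabiliser on sextets -/

/-- Masks of the representatives. -/
def mB : Fin 4 → ℕ := ![8388645, 8388629, 8388619, 8388615]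
/-- Sizes. -/
def nB : Fin 4 → ℕ := ![7, 84, 336, 1344]
/-- Values of the invariant. -/
def vB : Fin 4 → ℕ := ![96, 64, 48, 44]

/-- Tetrads of the representatives. -/
def LB : Fin 4 → List ℕ := ![[8388645, 147466, 3152, 4199040, 1581312, 2457600],
  [8388629, 4268034, 2097928, 3168, 1441920, 577536],
  [8388619, 147492, 1574928, 9536, 328320, 6328320],
  [8388615, 147496, 4268048, 2621632, 268544, 1082880]]

theorem mB_valid (i : Fin 4) : validS (mB i) = true := by revert i; decide +kernel

theorem sx_mB (i : Fin 4) : sx (mB i) = ((LB i).map fin).toFinset := by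
  apply sx_eq_toFinset
  · revert i; decide
  · revert i; decide +kernel
  · revert i; decide
  · revert i; decide +kernel
  · revert i; decide +kernel
  · revert i; decide +kernel
  · revert i; decide +kernel

theorem inv_B (i : Fin 4) : FF T0 (sx (mB i)) = vB i := by
  unfold T0
  rw [sx_mB, FF_toFinset LT (LB i) LT_nodup (by revert i; decide +kernel) LT_lt
    (by revert i; decide +kernel)]
  revert i
  decide +kernel

theorem le_B (i : Fin 4) :
    nB i ≤ (MulAction.orbit (MulAction.stabilizer M24 T0) (sx (mB i))).ncard := by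
  fin_cases i
  · exact le_ncard T0 sx validS okS stepS injS certB0 (by norm_num) isPerm_R0 isPerm_R1 isAut_R0
      isAut_R1 R0_T0 R1_T0 _ (congrArg sx (by decide +kernel))
  · exact le_ncard T0 sx validS okS stepS injS certB1 (by norm_num) isPerm_R0 isPerm_R1 isAut_R0
      isAut_R1 R0_T0 R1_T0 _ (congrArg sx (by decide +kernel))
  · exact le_ncard T0 sx validS okS stepS injS certB2 (by norm_num) isPerm_R0 isPerm_R1 isAut_R0
      isAut_R1 R0_T0 R1_T0 _ (congrArg sx (by decide +kernel))
  · exact le_ncard T0 sx validS okS stepS injS certB3 (by norm_num) isPerm_R0 isPerm_R1 isAut_R0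
      isAut_R1 R0_T0 R1_T0 _ (congrArg sx (by decide +kernel))

theorem ncard_sextets : sextets.ncard = 1771 :=
  Cfsg.Agent.SporadicStructure.Sextet.ncard_sextets S0363.result

theorem orbits_B :
    (∀ i, (MulAction.orbit (MulAction.stabilizer M24 T0) (sx (mB i))).ncard = nB i) ∧
      sextets = ⋃ i, MulAction.orbit (MulAction.stabilizer M24 T0) (sx (mB i)) := by
  refine orbits_cover sextets (Set.toFinite _) ?_ (FF T0) ?_ (fun i => sx (mB i)) ?_ ?_ nB le_B ?_
  · rintro ⟨g, -⟩ y hy
    exact Cfsg.Agent.SporadicStructure.SextetAction.smul_mem_sextets g.2 hy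
  · rintro ⟨g, hg⟩ y
    exact FF_stab hg
  · exact fun i => sx_mem (mB_valid i)
  · intro i j hij
    simp only [inv_B] at hij
    revert hij
    revert i j
    decide
  · rw [ncard_sextets]
    decide

/-! ### Sextet stabiliser on octads -/

/-- Masks of the representatives. -/
def mD : Fin 3 → ℕ := ![208020, 5279, 10558]
/-- Sizes. -/
def nD : Fin 3 → ℕ := ![15, 360, 384]
/-- Values of the invariant. -/
def vD : Fin 3 → ℕ := ![32, 16, 14]

theorem mD_valid (i : Fin 3) : validO (mD i) = true := by revert i; decide +kernel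

theorem inv_D (i : Fin 3) : FO S0 (fin (mD i)) = vD i := by
  rw [S0_eq, FO_toFinset LS LS_nodup LS_lt]
  revert i
  decide +kernel

theorem le_D (i : Fin 3) :
    nD i ≤ (MulAction.orbit (MulAction.stabilizer M24 S0) (fin (mD i))).ncard := by
  fin_cases i
  · exact le_ncard S0 fin validO okO stepO injO certD0 (by norm_num) isPerm_Q0 isPerm_Q1 isAut_Q0
      isAut_Q1 Q0_S0 Q1_S0 _ (congrArg fin (by decide +kernel))
  · exact le_ncard S0 fin validO okO stepO injO certD1 (by norm_num) isPerm_Q0 isPerm_Q1 isAut_Q0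
      isAut_Q1 Q0_S0 Q1_S0 _ (congrArg fin (by decide +kernel))
  · exact le_ncard S0 fin validO okO stepO injO certD2 (by norm_num) isPerm_Q0 isPerm_Q1 isAut_Q0
      isAut_Q1 Q0_S0 Q1_S0 _ (congrArg fin (by decide +kernel))

theorem orbits_D :
    (∀ i, (MulAction.orbit (MulAction.stabilizer M24 S0) (fin (mD i))).ncard = nD i) ∧
      octads = ⋃ i, MulAction.orbit (MulAction.stabilizer M24 S0) (fin (mD i)) := by
  refine orbits_cover octads (Set.toFinite _) ?_ (FO S0) ?_ (fun i => fin (mD i)) ?_ ?_ nD le_D ?_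
  · rintro ⟨g, -⟩ y hy
    exact (smul_mem_octads g.2).2 hy
  · rintro ⟨g, hg⟩ y
    exact FO_stab hg
  · exact fun i => mem_octads_of_validO (mD_valid i)
  · intro i j hij
    simp only [inv_D] at hij
    revert hij
    revert i j
    decide
  · rw [Cfsg.Agent.S0360.result]
    decide

/-! ### Transitivity of `M24` -/

theorem orbit_octad {o : Finset GolayPt} (ho : o ∈ octads) : MulAction.orbit M24 o = octads := by
  apply Set.Subset.antisymm
  · rintro _ ⟨g, rfl⟩
    exact Cfsg.Agent.S0367.smul_mem_octads g o ho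
  · intro o' ho'
    exact Cfsg.Agent.S0367.result o o' ho ho'

theorem orbit_trio {T : Finset (Finset GolayPt)} (hT : T ∈ trios) : MulAction.orbit M24 T = trios :=
  Cfsg.Agent.S1559.orbit_eq_trios T hT

theorem orbit_sextet {S : Finset (Finset GolayPt)} (hS : S ∈ sextets) :
    MulAction.orbit M24 S = sextets := Cfsg.Agent.SporadicStructure.SextetOrbits.orbit_eq hS

/-! ### The six statements -/

theorem trio_octads {T : Finset (Finset GolayPt)} (hT : T ∈ trios) :
    ∃ X : Fin 3 → Finset GolayPt, (∀ i, X i ∈ octads) ∧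
      (∀ i, (MulAction.orbit (MulAction.stabilizer M24 T) (X i)).ncard = ![3, 84, 672] i) ∧
      octads = ⋃ i, MulAction.orbit (MulAction.stabilizer M24 T) (X i) :=
  exists_of_transitive trios octads T0 T (orbit_trio T0_mem) hT
    (fun g _ hy => (smul_mem_octads g.2).2 hy) _ (fun i => mem_octads_of_validO (mA_valid i)) _
    orbits_A.1 orbits_A.2

theorem trio_sextets {T : Finset (Finset GolayPt)} (hT : T ∈ trios) :
    ∃ X : Fin 4 → Finset (Finset GolayPt), (∀ i, X i ∈ sextets) ∧
      (∀ i, (MulAction.orbit (MulAction.stabilizer M24 T) (X i)).ncard = ![7, 84, 336, 1344] i) ∧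
      sextets = ⋃ i, MulAction.orbit (MulAction.stabilizer M24 T) (X i) :=
  exists_of_transitive trios sextets T0 T (orbit_trio T0_mem) hT
    (fun g _ hy => Cfsg.Agent.SporadicStructure.SextetAction.smul_mem_sextets g.2 hy) _
    (fun i => sx_mem (mB_valid i)) _ orbits_B.1 orbits_B.2

theorem sextet_octads {S : Finset (Finset GolayPt)} (hS : S ∈ sextets) :
    ∃ X : Fin 3 → Finset GolayPt, (∀ i, X i ∈ octads) ∧
      (∀ i, (MulAction.orbit (MulAction.stabilizer M24 S) (X i)).ncard = ![15, 360, 384] i) ∧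
      octads = ⋃ i, MulAction.orbit (MulAction.stabilizer M24 S) (X i) :=
  exists_of_transitive sextets octads S0 S (orbit_sextet S0_mem) hS
    (fun g _ hy => (smul_mem_octads g.2).2 hy) _ (fun i => mem_octads_of_validO (mD_valid i)) _
    orbits_D.1 orbits_D.2

theorem sextet_trios {S : Finset (Finset GolayPt)} (hS : S ∈ sextets) :
    ∃ X : Fin 4 → Finset (Finset GolayPt), (∀ i, X i ∈ trios) ∧
      (∀ i, (MulAction.orbit (MulAction.stabilizer M24 S) (X i)).ncard = ![15, 180, 720, 2880] i) ∧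
      trios = ⋃ i, MulAction.orbit (MulAction.stabilizer M24 S) (X i) := by
  obtain ⟨X, h1, h2, h3⟩ := exists_dual (G := M24) trios sextets T0 S (orbit_trio T0_mem)
    (orbit_sextet hS) (fun i => sx (mB i)) (fun i => sx_mem (mB_valid i)) orbits_B.2
  refine ⟨X, h1, fun i => ?_, h3⟩
  have h4 := h2 i
  rw [orbits_B.1, ncard_sextets, Cfsg.Agent.S1557.result.2] at h4
  apply Nat.eq_of_mul_eq_mul_right (by norm_num : 0 < 1771)
  rw [h4]
  fin_cases i <;> rfl

theorem octad_trios {o : Finset GolayPt} (ho : o ∈ octads) :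
    ∃ X : Fin 3 → Finset (Finset GolayPt), (∀ i, X i ∈ trios) ∧
      (∀ i, (MulAction.orbit (MulAction.stabilizer M24 o) (X i)).ncard = ![15, 420, 3360] i) ∧
      trios = ⋃ i, MulAction.orbit (MulAction.stabilizer M24 o) (X i) := by
  obtain ⟨X, h1, h2, h3⟩ := exists_dual (G := M24) trios octads T0 o (orbit_trio T0_mem)
    (orbit_octad ho) (fun i => fin (mA i)) (fun i => mem_octads_of_validO (mA_valid i)) orbits_A.2
  refine ⟨X, h1, fun i => ?_, h3⟩
  have h4 := h2 i
  rw [orbits_A.1, Cfsg.Agent.S0360.result, Cfsg.Agent.S1557.result.2] at h4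
  apply Nat.eq_of_mul_eq_mul_right (by norm_num : 0 < 759)
  rw [h4]
  fin_cases i <;> rfl

theorem octad_sextets {o : Finset GolayPt} (ho : o ∈ octads) :
    ∃ X : Fin 3 → Finset (Finset GolayPt), (∀ i, X i ∈ sextets) ∧
      (∀ i, (MulAction.orbit (MulAction.stabilizer M24 o) (X i)).ncard = ![35, 840, 896] i) ∧
      sextets = ⋃ i, MulAction.orbit (MulAction.stabilizer M24 o) (X i) := by
  obtain ⟨X, h1, h2, h3⟩ := exists_dual (G := M24) sextets octads S0 o (orbit_sextet S0_mem)
    (orbit_octad ho) (fun i => fin (mD i)) (fun i => mem_octads_of_validO (mD_valid i)) orbits_D.2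
  refine ⟨X, h1, fun i => ?_, h3⟩
  have h4 := h2 i
  rw [orbits_D.1, Cfsg.Agent.S0360.result, ncard_sextets] at h4
  apply Nat.eq_of_mul_eq_mul_right (by norm_num : 0 < 759)
  rw [h4]
  fin_cases i <;> rfl

/-- The form of the statements, three orbits. -/
theorem three {G α : Type*} [Group G] [MulAction G α] {Ω : Set α} {a b c : ℕ}
    (h : ∃ X : Fin 3 → α, (∀ i, X i ∈ Ω) ∧ (∀ i, (MulAction.orbit G (X i)).ncard = ![a, b, c] i) ∧
      Ω = ⋃ i, MulAction.orbit G (X i)) :
    ∃ X₁ ∈ Ω, ∃ X₂ ∈ Ω, ∃ X₃ ∈ Ω, (MulAction.orbit G X₁).ncard = a ∧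
      (MulAction.orbit G X₂).ncard = b ∧ (MulAction.orbit G X₃).ncard = c ∧
      Ω = MulAction.orbit G X₁ ∪ MulAction.orbit G X₂ ∪ MulAction.orbit G X₃ := by
  obtain ⟨X, h1, h2, h3⟩ := h
  refine ⟨X 0, h1 0, X 1, h1 1, X 2, h1 2, h2 0, h2 1, h2 2, ?_⟩
  conv_lhs => rw [h3]
  ext Z
  simp only [Set.mem_union, Set.mem_iUnion, Fin.exists_fin_succ, Fin.exists_fin_zero, or_false,
    or_assoc]
  exact Iff.rfl

/-- The form of the statements, four orbits. -/
theorem four {G α : Type*} [Group G] [MulAction G α] {Ω : Set α} {a b c d : ℕ}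
    (h : ∃ X : Fin 4 → α, (∀ i, X i ∈ Ω) ∧
      (∀ i, (MulAction.orbit G (X i)).ncard = ![a, b, c, d] i) ∧
      Ω = ⋃ i, MulAction.orbit G (X i)) :
    ∃ X₁ ∈ Ω, ∃ X₂ ∈ Ω, ∃ X₃ ∈ Ω, ∃ X₄ ∈ Ω, (MulAction.orbit G X₁).ncard = a ∧
      (MulAction.orbit G X₂).ncard = b ∧ (MulAction.orbit G X₃).ncard = c ∧
      (MulAction.orbit G X₄).ncard = d ∧
      Ω = MulAction.orbit G X₁ ∪ MulAction.orbit G X₂ ∪ MulAction.orbit G X₃ ∪
        MulAction.orbit G X₄ := by
  obtain ⟨X, h1, h2, h3⟩ := h
  refine ⟨X 0, h1 0, X 1, h1 1, X 2, h1 2, X 3, h1 3, h2 0, h2 1, h2 2, h2 3, ?_⟩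
  conv_lhs => rw [h3]
  ext Z
  simp only [Set.mem_union, Set.mem_iUnion, Fin.exists_fin_succ, Fin.exists_fin_zero, or_false,
    or_assoc]
  exact Iff.rfl

end Cfsg.Agent.H867.Orb
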